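import Cfsg.Agent.H240.RIM.LThreeTwo
import Cfsg.Agent.H477.HC.RowSp
import Cfsg.Agent.Blocks.CentralProduct

/-!
# A character of `3`-defect zero of `Sp_6(2)` (S4816, helper240)

`exists_405` : the Harish-Chandra induction of the character of degree `3` of `GL_3(2)`.
-/

set_option autoImplicit false

open scoped ComplexConjugate
open Cfsg

namespace Cfsg.Agent.H240.RIM

open Cfsg.Agent.Characters Module Cfsg.Agent.H53.HC Cfsg.Agent.H477.HC

theorem exists_405 : ∃ θ : ↥(Matrix.symplecticGroup (Fin 3) (ZMod 2)) → ℂ,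
    IsIrrCharacter _ θ ∧ (charDegree θ).factorization 3 = 4 := by
  classical
  have h2 : Fact (Nat.Prime 2) := ⟨Nat.prime_two⟩
  obtain ⟨ψ, hψ, -⟩ := exists_three_cus
  obtain ⟨⟨W₀, hW₀⟩, -⟩ := CForm.spF_frame (K := ZMod 2) (p := 2) 3 0
  obtain ⟨χ, hχ, hχ1, -⟩ := exists_char (CForm.spF (ZMod 2) (3 + 0)) hW₀ hψ
  have hK : Nat.card (ZMod 2) = 2 := Nat.card_zmod 2
  have hfin : Finite (Matrix.symplecticGroup (Fin 3) (ZMod 2)) := inferInstance
  have hθ : IsIrrCharacter _ (χ ∘ (isoSp 3 (ZMod 2)).toMonoidHom) :=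
    Core.isIrr_comp (isoSp 3 (ZMod 2)).toMonoidHom (isoSp 3 (ZMod 2)).surjective hχ
  have h1 : (χ ∘ (isoSp 3 (ZMod 2)).toMonoidHom) 1 = (dg (CForm.spF (ZMod 2) (3 + 0)) 3 : ℂ) := by
    rw [← hχ1]
    show χ (isoSp 3 (ZMod 2) 1) = _
    rw [map_one]
  have hdeg : charDegree (χ ∘ (isoSp 3 (ZMod 2)).toMonoidHom) = dg (CForm.spF (ZMod 2) (3 + 0)) 3 := by
    unfold charDegree
    rw [h1, Complex.natCast_re, Nat.floor_natCast]
  refine ⟨_, hθ, ?_⟩
  rw [hdeg]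
  obtain ⟨e, he⟩ := psp_dvd_top (ZMod 2) (p := 2) (m := 3) (by omega)
  rw [hK] at he
  have h3 : 3 ^ 4 ∣ dg (CForm.spF (ZMod 2) (3 + 0)) 3 := by
    have h4 : (3 : ℕ) ^ 4 ∣ 2 ^ e * dg (CForm.spF (ZMod 2) (3 + 0)) 3 := by
      refine dvd_trans ?_ he
      decide
    exact (Nat.Coprime.pow 4 e (by norm_num : Nat.Coprime 3 2)).dvd_of_dvd_mul_left h4
  have hcard : Nat.card (Matrix.symplecticGroup (Fin 3) (ZMod 2)) = 2 ^ 9 * (3 ^ 4 * 35) := by
    rw [Nat.card_congr (isoSp 3 (ZMod 2)).toEquiv, card_spF, hK]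
    decide
  have hd : dg (CForm.spF (ZMod 2) (3 + 0)) 3 ∣ 2 ^ 9 * (3 ^ 4 * 35) := by
    rw [← hcard]
    exact Blocks.CentralProduct.degree_dvd_card hθ h1
  have h0 : dg (CForm.spF (ZMod 2) (3 + 0)) 3 ≠ 0 := by
    intro h
    rw [h] at hd
    revert hd
    decide
  refine le_antisymm ?_ ((Nat.prime_three.pow_dvd_iff_le_factorization h0).1 h3)
  by_contra hcon
  have h5 : 3 ^ 5 ∣ dg (CForm.spF (ZMod 2) (3 + 0)) 3 :=
    (Nat.prime_three.pow_dvd_iff_le_factorization h0).2 (by omega)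
  have h6 := h5.trans hd
  revert h6
  decide

end Cfsg.Agent.H240.RIM
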